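import Mathlib
import Cfsg.Agent.Lib.Helper31.Siegel.Defs

/-!
# SIEGEL (S5072), package [PARAM]: the elements of `T p r` are exactly the Siegel
transvections of the singular line `⟨p, r⟩`.
-/

set_option autoImplicit false
open scoped Matrix

namespace Cfsg.Agent.Lib.Helper67.Siegel

open Cfsg.Agent.Lib.Helper31.Siegel

universe u

variable {n : ℕ} {F : Type u} [Field F]

/-- dual vectors of an independent pair. -/
theorem exists_dual_pair (p r : Vec n F) (hli : LinearIndependent F ![p, r]) :
    ∃ p' r' : Vec n F, B p p' = 1 ∧ B r p' = 0 ∧ B p r' = 0 ∧ B r r' = 1 := by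
  rw [LinearIndependent.pair_iff] at hli
  have hp0 : p ≠ 0 := by
    intro h
    have := hli 1 0 (by rw [h]; simp)
    exact one_ne_zero this.1
  obtain ⟨v1, hv1⟩ : ∃ v1, B p v1 ≠ 0 := by
    by_contra hcon
    exact hp0 (eq_zero_of_B p (fun v => by_contra fun hv => hcon ⟨v, hv⟩))
  have hr' : r - (B r v1 / B p v1) • p ≠ 0 := by
    intro h
    have := hli (-(B r v1 / B p v1)) 1 (by rw [← h]; module)
    exact one_ne_zero this.2
  obtain ⟨v2, hv2⟩ : ∃ v2, B (r - (B r v1 / B p v1) • p) v2 ≠ 0 := by
    by_contra hcon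
    exact hr' (eq_zero_of_B _ (fun v => by_contra fun hv => hcon ⟨v, hv⟩))
  have hD0 : B p v1 * B r v2 - B p v2 * B r v1 ≠ 0 := by
    intro h
    apply hv2
    rw [B_sub_left, B_smul_left]
    field_simp
    linear_combination h
  refine ⟨(B p v1 * B r v2 - B p v2 * B r v1)⁻¹ • (B r v2 • v1 - B r v1 • v2),
    (B p v1 * B r v2 - B p v2 * B r v1)⁻¹ • (B p v1 • v2 - B p v2 • v1), ?_, ?_, ?_, ?_⟩
  · simp only [B_smul_right, B_sub_right]
    field_simp
    try ring
  · simp only [B_smul_right, B_sub_right]
    field_simp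
    try ring
  · simp only [B_smul_right, B_sub_right]
    field_simp
    try ring
  · simp only [B_smul_right, B_sub_right]
    field_simp
    try ring

/-- an isometry fixing every vector perpendicular to the singular line is a Siegel
transvection. -/
theorem siegel_of_mem_fixSet (p r : Vec n F) (hli : LinearIndependent F ![p, r])
    (hQp : QF n F p = 0) (hQr : QF n F r = 0) (hBpr : B p r = 0)
    (σ : ↥(Iso n F)) (hσ : σ ∈ fixSet p r) : ∃ c : F, IsSiegel p r c σ := by
  rw [mem_fixSet] at hσ
  obtain ⟨p', r', h1, h2, h3, h4⟩ := exists_dual_pair p r hli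
  have hBrp : B r p = 0 := by rw [B_comm]; exact hBpr
  have hBpp : B p p = 0 := by rw [B_self, hQp, mul_zero]
  have hBrr : B r r = 0 := by rw [B_self, hQr, mul_zero]
  have h1' : B p' p = 1 := by rw [B_comm]; exact h1
  have h2' : B p' r = 0 := by rw [B_comm]; exact h2
  have h3' : B r' p = 0 := by rw [B_comm]; exact h3
  have h4' : B r' r = 1 := by rw [B_comm]; exact h4
  -- the perpendicular part of `v`
  have hperp : ∀ v : Vec n F, B (v - B v p • p' - B v r • r') p = 0 ∧
      B (v - B v p • p' - B v r • r') r = 0 := by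
    intro v
    constructor
    · simp only [B_sub_left, B_smul_left, h1', h3']; ring
    · simp only [B_sub_left, B_smul_left, h2', h4']; ring
  have hdec : ∀ v : Vec n F, mat σ *ᵥ (v - B v p • p' - B v r • r')
      = v - B v p • p' - B v r • r' := fun v => hσ _ (hperp v).1 (hperp v).2
  have hσv : ∀ v : Vec n F, mat σ *ᵥ v
      = v + B v p • (mat σ *ᵥ p' - p') + B v r • (mat σ *ᵥ r' - r') := by
    intro v
    have h := hdec v
    rw [Matrix.mulVec_sub, Matrix.mulVec_sub, Matrix.mulVec_smul, Matrix.mulVec_smul] at h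
    linear_combination (norm := module) h
  -- vectors perpendicular to `p^⊥ ∩ r^⊥` lie in the line
  have hspan : ∀ z : Vec n F, (∀ w : Vec n F, B w p = 0 → B w r = 0 → B z w = 0) →
      z = B z p' • p + B z r' • r := by
    intro z hz
    have h0 : z - B z p' • p - B z r' • r = 0 := by
      apply eq_zero_of_B
      intro v
      have e1 : B (z - B z p' • p - B z r' • r) (v - B v p • p' - B v r • r') = 0 := by
        have hp0 : B p (v - B v p • p' - B v r • r') = 0 := by
          rw [B_comm]; exact (hperp v).1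
        have hr0 : B r (v - B v p • p' - B v r • r') = 0 := by
          rw [B_comm]; exact (hperp v).2
        rw [B_sub_left, B_sub_left, B_smul_left, B_smul_left, hp0, hr0,
          hz _ (hperp v).1 (hperp v).2]
        ring
      have e2 : B (z - B z p' • p - B z r' • r) p' = 0 := by
        simp only [B_sub_left, B_smul_left, h1, h2]; ring
      have e3 : B (z - B z p' • p - B z r' • r) r' = 0 := by
        simp only [B_sub_left, B_smul_left, h3, h4]; ring
      have e4 : B (z - B z p' • p - B z r' • r) (v - B v p • p' - B v r • r')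
          = B (z - B z p' • p - B z r' • r) v - B v p * B (z - B z p' • p - B z r' • r) p'
            - B v r * B (z - B z p' • p - B z r' • r) r' := by
        rw [B_sub_right, B_sub_right, B_smul_right, B_smul_right]
      rw [e1, e2, e3] at e4
      linear_combination -e4
    linear_combination (norm := module) h0
  -- x = σ p' - p', y = σ r' - r'
  have hxw : ∀ w : Vec n F, B w p = 0 → B w r = 0 → B (mat σ *ᵥ p' - p') w = 0 := by
    intro w hwp hwr
    have hw := hσ w hwp hwr
    have : B (mat σ *ᵥ p') w = B p' w := by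
      conv_lhs => rw [← hw]
      exact B_act σ p' w
    rw [B_sub_left, this, sub_self]
  have hyw : ∀ w : Vec n F, B w p = 0 → B w r = 0 → B (mat σ *ᵥ r' - r') w = 0 := by
    intro w hwp hwr
    have hw := hσ w hwp hwr
    have : B (mat σ *ᵥ r') w = B r' w := by
      conv_lhs => rw [← hw]
      exact B_act σ r' w
    rw [B_sub_left, this, sub_self]
  have hx := hspan _ hxw
  have hy := hspan _ hyw
  generalize B (mat σ *ᵥ p' - p') p' = x1 at hx
  generalize B (mat σ *ᵥ p' - p') r' = x2 at hx
  generalize B (mat σ *ᵥ r' - r') p' = y1 at hy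
  generalize B (mat σ *ᵥ r' - r') r' = y2 at hy
  have hσp : mat σ *ᵥ p' = p' + (x1 • p + x2 • r) := by
    linear_combination (norm := module) hx
  have hσr : mat σ *ᵥ r' = r' + (y1 • p + y2 • r) := by
    linear_combination (norm := module) hy
  -- Q (σ p') = Q p' gives x1 = 0
  have hQlin : ∀ a b : F, QF n F (a • p + b • r) = 0 := by
    intro a b
    rw [Q_add, Q_smul, Q_smul, hQp, hQr, B_smul_left, B_smul_right, hBpr]
    ring
  have hx1 : x1 = 0 := by
    have h := Q_act σ p'
    rw [hσp, Q_add, hQlin, B_add_right, B_smul_right, B_smul_right, h1', h2'] at h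
    linear_combination h
  have hy2 : y2 = 0 := by
    have h := Q_act σ r'
    rw [hσr, Q_add, hQlin, B_add_right, B_smul_right, B_smul_right, h3', h4'] at h
    linear_combination h
  have hxy : y1 + x2 = 0 := by
    have h := B_act σ p' r'
    rw [hσp, hσr] at h
    simp only [B_add_left, B_add_right, B_smul_left, B_smul_right, h1, h2, h3, h4, h1', h2',
      h3', h4', hBpr, hBrp, hBpp, hBrr] at h
    linear_combination h
  refine ⟨y1, fun v => ?_⟩
  rw [hσv v, hx, hy, hx1, hy2]
  have hx2 : x2 = -y1 := by linear_combination hxy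
  rw [hx2]
  module

theorem pkgParam : PkgParam.{u} := by
  intro n F _ p r hpr σ
  obtain ⟨hli, hQp, hQr, hQpr⟩ := hpr
  have hBpr : B p r = 0 := by
    have h := Q_add p r
    rw [hQpr, hQp, hQr] at h
    simpa using h.symm
  have hBrp : B r p = 0 := by rw [B_comm]; exact hBpr
  have hBpp : B p p = 0 := by rw [B_self, hQp, mul_zero]
  have hBrr : B r r = 0 := by rw [B_self, hQr, mul_zero]
  constructor
  · intro hσ
    induction hσ using Subgroup.closure_induction with
    | mem σ hσ => exact siegel_of_mem_fixSet p r hli hQp hQr hBpr σ hσ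
    | one =>
      refine ⟨0, fun v => ?_⟩
      rw [one_act]
      module
    | mul σ τ _ _ ihσ ihτ =>
      obtain ⟨c, hc⟩ := ihσ
      obtain ⟨d, hd⟩ := ihτ
      refine ⟨c + d, fun v => ?_⟩
      rw [mul_act, hd v, hc]
      simp only [B_add_left, B_sub_left, B_smul_left, hBpr, hBrp, hBpp, hBrr]
      module
    | inv σ _ ih =>
      obtain ⟨c, hc⟩ := ih
      refine ⟨-c, fun v => ?_⟩
      have h1 := hc (mat σ⁻¹ *ᵥ v)
      rw [act_inv] at h1
      generalize mat σ⁻¹ *ᵥ v = w at h1 ⊢
      subst h1
      simp only [B_add_left, B_sub_left, B_smul_left, hBpr, hBrp, hBpp, hBrr]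
      module
  · rintro ⟨c, hc⟩
    apply Subgroup.subset_closure
    rw [mem_fixSet]
    intro v hvp hvr
    rw [hc v, hvp, hvr]
    module

end Cfsg.Agent.Lib.Helper67.Siegel
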