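import Mathlib
import Cfsg.Agent.Lib.Helper31.Siegel.Defs

/-!
# SIEGEL (S5072), package [COMR]: the commutator formula
`[S_{p,r}(c), S_{s,t}(d)] = S_{s,p}(c d)`.
-/

set_option autoImplicit false
open scoped Matrix

namespace Cfsg.Agent.Lib.Helper67.Siegel

open Cfsg.Agent.Lib.Helper31.Siegel

universe u

theorem pkgComr : PkgComr.{u} := by
  intro n F _ p r s t hpr hst hps hpt hrs hrt c d σ τ hσ hτ
  obtain ⟨-, hQp, hQr, hQpr⟩ := hpr
  obtain ⟨-, hQs, hQt, hQst⟩ := hst
  have hpr' : B p r = 0 := by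
    have h := Q_add p r
    rw [hQpr, hQp, hQr] at h
    simpa using h.symm
  have hst' : B s t = 0 := by
    have h := Q_add s t
    rw [hQst, hQs, hQt] at h
    simpa using h.symm
  have hpp : B p p = 0 := by rw [B_self, hQp, mul_zero]
  have hrr : B r r = 0 := by rw [B_self, hQr, mul_zero]
  have hss : B s s = 0 := by rw [B_self, hQs, mul_zero]
  have htt : B t t = 0 := by rw [B_self, hQt, mul_zero]
  have hrp : B r p = 0 := by rw [B_comm]; exact hpr'
  have hts : B t s = 0 := by rw [B_comm]; exact hst'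
  have hsp : B s p = 0 := by rw [B_comm]; exact hps
  have htp : B t p = 0 := by rw [B_comm]; exact hpt
  have hsr : B s r = 0 := by rw [B_comm]; exact hrs
  have htr : B t r = 1 := by rw [B_comm]; exact hrt
  have key : ∀ u : Vec n F, mat σ *ᵥ (mat τ *ᵥ u) =
      (mat τ *ᵥ (mat σ *ᵥ u)) + ((c * d) * B (mat τ *ᵥ (mat σ *ᵥ u)) p) • s
        - ((c * d) * B (mat τ *ᵥ (mat σ *ᵥ u)) s) • p := by
    intro u
    rw [hτ u, hσ (u + (d * B u t) • s - (d * B u s) • t), hσ u,
      hτ (u + (c * B u r) • p - (c * B u p) • r)]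
    simp only [B_add_left, B_sub_left, B_smul_left, hps, hpt, hrs, hrt, hpr', hst', hpp, hrr,
      hss, htt, hrp, hts, hsp, htp, hsr, htr]
    module
  intro w
  have h := key (mat σ⁻¹ *ᵥ (mat τ⁻¹ *ᵥ w))
  rw [act_inv σ, act_inv τ] at h
  rw [mul_act, mul_act, mul_act]
  exact h

end Cfsg.Agent.Lib.Helper67.Siegel
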